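import Mathlib

set_option autoImplicit false

namespace Cfsg.Agent.Lib.helper16.GreenFix

/-- a `p`-group acting on a finite set, an invariant function with values in a ring of
characteristic `p` with nonzero sum: there is a fixed point where the function is nonzero -/
theorem exists_fixed_of_sum_ne_zero {F : Type*} [CommRing F] (p : ℕ) [Fact p.Prime]
    (hp : (p : F) = 0) {R : Type*} [Group R] [Finite R] (hR : IsPGroup p R) {X : Type*}
    [Fintype X] [MulAction R X] (f : X → F) (hf : ∀ (r : R) (x : X), f (r • x) = f x)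
    (hsum : ∑ x, f x ≠ 0) : ∃ x : X, (∀ r : R, r • x = x) ∧ f x ≠ 0 := by
  classical
  by_contra hcon
  push Not at hcon
  apply hsum
  have e := Finset.sum_comp (s := (Finset.univ : Finset X)) (f := fun r : F => r) (g := f)
  rw [e]
  apply Finset.sum_eq_zero
  intro c hc
  by_cases hc0 : c = 0
  · rw [hc0, smul_zero]
  let S : SubMulAction R X :=
    { carrier := {x | f x = c}
      smul_mem' := fun q x hx => by
        show f (q • x) = c
        rw [hf]
        exact hx }
  have hmod := hR.card_modEq_card_fixedPoints S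
  have hempty : Nat.card (MulAction.fixedPoints R S) = 0 := by
    rw [Nat.card_eq_zero]
    left
    constructor
    rintro ⟨x, hx⟩
    apply hc0
    have hx2 : f x.1 = c := x.2
    rw [← hx2]
    apply hcon x.1
    intro r
    exact congrArg Subtype.val (hx r)
  rw [hempty] at hmod
  have hdvd : p ∣ Nat.card S := (Nat.modEq_zero_iff_dvd).mp hmod
  have hcard : Nat.card S = (Finset.univ.filter (fun x => f x = c)).card := by
    rw [← Fintype.card_subtype, ← Nat.card_eq_fintype_card]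
    rfl
  rw [hcard] at hdvd
  obtain ⟨j, hj⟩ := hdvd
  rw [hj, nsmul_eq_mul]
  push_cast
  rw [hp]
  ring

/-- a nonzero central idempotent of a group algebra in characteristic `p` is not annihilated by
the sum of a `p`-subgroup: some coset sum is nonzero -/
theorem coset_sum_ne_zero {F N : Type*} [CommRing F] [Group N] [Fintype N] (p : ℕ)
    [Fact p.Prime] (hp : (p : F) = 0) (Q : Subgroup N) [Fintype Q] (hQ : IsPGroup p Q) (ε : N → F)
    (hcl : ∀ x y : N, ε (y * x * y⁻¹) = ε x)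
    (hidem : ∀ y : N, ∑ x : N, ε x * ε (x⁻¹ * y) = ε y)
    (hne : ε ≠ 0) : ∃ y : N, ∑ u : Q, ε ((u : N)⁻¹ * y) ≠ 0 := by
  classical
  by_contra hcon
  push Not at hcon
  let act : Q → (N → F) → (N → F) := fun u f x => f ((u : N)⁻¹ * x)
  let W : AddSubgroup (N → F) := AddSubgroup.closure (Set.range fun u : Q => act u ε)
  have hW_inv : ∀ (u : Q) (f : N → F), f ∈ W → act u f ∈ W := by
    intro u f hf
    induction hf using AddSubgroup.closure_induction with
    | mem f hf =>
      obtain ⟨u', rfl⟩ := hf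
      apply AddSubgroup.subset_closure
      refine ⟨u * u', ?_⟩
      funext x
      simp [act, mul_assoc]
    | zero => exact W.zero_mem
    | add f g _ _ hf hg => exact W.add_mem hf hg
    | neg f _ hf => exact W.neg_mem hf
  have hW_idem : ∀ f ∈ W, ∀ y, ∑ x, f x * ε (x⁻¹ * y) = f y := by
    intro f hf
    induction hf using AddSubgroup.closure_induction with
    | mem f hf =>
      obtain ⟨u, rfl⟩ := hf
      intro y
      show ∑ x, ε ((u : N)⁻¹ * x) * ε (x⁻¹ * y) = ε ((u : N)⁻¹ * y)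
      rw [← hidem ((u : N)⁻¹ * y)]
      exact Fintype.sum_equiv (Equiv.mulLeft (u : N)⁻¹) _ _ (fun x => by simp [mul_assoc])
    | zero => intro y; simp
    | add f g _ _ hf hg =>
      intro y
      simp only [Pi.add_apply, add_mul, Finset.sum_add_distrib, hf y, hg y]
    | neg f _ hf =>
      intro y
      simp only [Pi.neg_apply, neg_mul, Finset.sum_neg_distrib, hf y]
  have hpW : ∀ w : W, p • w = 0 := by
    intro w
    apply Subtype.ext
    funext x
    show p • (w.1 x) = 0
    rw [nsmul_eq_mul, hp, zero_mul]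
  have hfin : Finite W := by
    have hfg : AddGroup.FG W := by
      rw [AddGroup.fg_iff_addSubgroup_fg]
      rw [AddSubgroup.fg_iff]
      exact ⟨_, rfl, Set.finite_range _⟩
    apply AddCommGroup.finite_of_fg_isAddTorsion
    intro w
    rw [isOfFinAddOrder_iff_nsmul_eq_zero]
    exact ⟨p, (Fact.out : p.Prime).pos, hpW w⟩
  let _ : MulAction Q W :=
    { smul := fun u w => ⟨act u w.1, hW_inv u w.1 w.2⟩
      one_smul := fun w => Subtype.ext (funext fun x => by
        show w.1 (((1 : Q) : N)⁻¹ * x) = w.1 x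
        simp)
      mul_smul := fun u v w => Subtype.ext (funext fun x => by
        show w.1 (((u * v : Q) : N)⁻¹ * x) = w.1 ((v : N)⁻¹ * ((u : N)⁻¹ * x))
        simp [mul_assoc]) }
  have h0 : (0 : W) ∈ MulAction.fixedPoints Q W := fun u => Subtype.ext (by funext x; rfl)
  have hεW : ε ∈ W := AddSubgroup.subset_closure ⟨1, by funext x; simp [act]⟩
  have hdvd : p ∣ Nat.card W := by
    have h1 : addOrderOf (⟨ε, hεW⟩ : W) = p := by
      apply addOrderOf_eq_prime (hpW _)
      intro h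
      exact hne (congrArg Subtype.val h)
    rw [← h1]
    exact addOrderOf_dvd_natCard _
  obtain ⟨b, hb, hbne⟩ := hQ.exists_fixed_point_of_prime_dvd_card_of_fixed_point W hdvd h0
  have hbfix : ∀ (u : Q) (x : N), b.1 ((u : N)⁻¹ * x) = b.1 x := by
    intro u x
    have := congrArg Subtype.val (hb u)
    exact congrFun this x
  apply hbne
  apply Subtype.ext
  funext y
  show (0 : N → F) y = b.1 y
  rw [← hW_idem b.1 b.2 y]
  obtain ⟨T, hT, -⟩ := Subgroup.exists_isComplement_right Q (1 : N)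
  let e : ↥Q × ↥T ≃ N := Equiv.ofBijective (fun x : ↥Q × ↥T => (x.1 : N) * (x.2 : N)) hT
  rw [← Equiv.sum_comp e, Fintype.sum_prod_type, Finset.sum_comm]
  symm
  apply Finset.sum_eq_zero
  intro t _
  have h1 : ∀ u : Q, b.1 (e (u, t)) * ε ((e (u, t))⁻¹ * y)
      = b.1 t * ε ((u : N)⁻¹ * (y * (t : N)⁻¹)) := by
    intro u
    have he : e (u, t) = (u : N) * (t : N) := rfl
    rw [he]
    congr 1
    · have := hbfix u ((u : N) * (t : N))
      rw [inv_mul_cancel_left] at this
      exact this.symm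
    · rw [← hcl _ (t : N)]
      congr 1
      group
  rw [Finset.sum_congr rfl (fun u _ => h1 u), ← Finset.mul_sum, hcon (y * (t : N)⁻¹), mul_zero]

/-- **Key lemma for Green's theorem.** A nonzero central idempotent `ε` of the group algebra
of `N` in characteristic `p` and a `p`-subgroup `Q`: there is `x` in the support of `ε` with
`Q ∩ Q^x ≤ C(x)`. -/
theorem exists_fixed_class {F N : Type*} [CommRing F] [Group N] [Fintype N] (p : ℕ)
    [Fact p.Prime] (hp : (p : F) = 0) (Q : Subgroup N) (hQ : IsPGroup p Q) (ε : N → F)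
    (hcl : ∀ x y : N, ε (y * x * y⁻¹) = ε x)
    (hidem : ∀ y : N, ∑ x : N, ε x * ε (x⁻¹ * y) = ε y)
    (hne : ε ≠ 0) :
    ∃ x : N, ε x ≠ 0 ∧ ∀ r ∈ Q, x * r * x⁻¹ ∈ Q → x * r * x⁻¹ = r := by
  classical
  obtain ⟨y, hy⟩ := coset_sum_ne_zero p hp Q hQ ε hcl hidem hne
  let R : Subgroup N := Q ⊓ Q.comap (MulAut.conj y).toMonoidHom
  have hRmem : ∀ r : N, r ∈ R ↔ r ∈ Q ∧ y * r * y⁻¹ ∈ Q := by
    intro r
    simp [R, Subgroup.mem_inf, Subgroup.mem_comap, MulAut.conj_apply]
  have hRp : IsPGroup p R := hQ.to_le inf_le_left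
  let _ : MulAction R Q :=
    { smul := fun r u => ⟨y * (r : N) * y⁻¹ * (u : N) * (r : N)⁻¹,
        Q.mul_mem (Q.mul_mem ((hRmem r.1).mp r.2).2 u.2) (Q.inv_mem ((hRmem r.1).mp r.2).1)⟩
      one_smul := fun u => Subtype.ext (by
        show y * ((1 : R) : N) * y⁻¹ * (u : N) * ((1 : R) : N)⁻¹ = (u : N)
        simp)
      mul_smul := fun r s u => Subtype.ext (by
        show y * ((r : N) * (s : N)) * y⁻¹ * (u : N) * ((r : N) * (s : N))⁻¹
          = y * (r : N) * y⁻¹ * (y * (s : N) * y⁻¹ * (u : N) * (s : N)⁻¹) * (r : N)⁻¹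
        group) }
  have hsmul : ∀ (r : R) (u : Q), ((r • u : Q) : N) = y * (r : N) * y⁻¹ * (u : N) * (r : N)⁻¹ :=
    fun _ _ => rfl
  have hf : ∀ (r : R) (u : Q), ε (((r • u : Q) : N)⁻¹ * y) = ε ((u : N)⁻¹ * y) := by
    intro r u
    rw [hsmul, ← hcl ((u : N)⁻¹ * y) (r : N)]
    congr 1
    group
  obtain ⟨u₀, hfix, hu₀⟩ := exists_fixed_of_sum_ne_zero p hp hRp
    (fun u : Q => ε ((u : N)⁻¹ * y)) hf hy
  refine ⟨(u₀ : N)⁻¹ * y, hu₀, ?_⟩
  intro r hr hxr
  have hrR : r ∈ R := by
    rw [hRmem]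
    refine ⟨hr, ?_⟩
    have : y * r * y⁻¹ = (u₀ : N) * ((u₀ : N)⁻¹ * y * r * ((u₀ : N)⁻¹ * y)⁻¹) * (u₀ : N)⁻¹ := by
      group
    rw [this]
    exact Q.mul_mem (Q.mul_mem u₀.2 hxr) (Q.inv_mem u₀.2)
  have h1 := congrArg Subtype.val (hfix ⟨r, hrR⟩)
  rw [hsmul] at h1
  have h2 : y * r * y⁻¹ * (u₀ : N) = (u₀ : N) * r := by
    calc y * r * y⁻¹ * (u₀ : N) = (y * r * y⁻¹ * (u₀ : N) * r⁻¹) * r := by group
      _ = (u₀ : N) * r := by rw [h1]
  calc (u₀ : N)⁻¹ * y * r * ((u₀ : N)⁻¹ * y)⁻¹ = (u₀ : N)⁻¹ * (y * r * y⁻¹ * (u₀ : N)) := by group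
    _ = (u₀ : N)⁻¹ * ((u₀ : N) * r) := by rw [h2]
    _ = r := by group

end Cfsg.Agent.Lib.helper16.GreenFix
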