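import Mathlib
import Cfsg.Agent.Lib.helper16.ZStarIso

set_option autoImplicit false

/-! `G = O(G) C_G(z)` for an isolated involution `z`. -/

namespace Cfsg.Agent.Lib.helper16.ZStar

open Cfsg

universe u

variable {G : Type u} [Group G] [Finite G]

/-- `G = O(G) C_G(z)` for an isolated involution `z` -/
theorem iso_factor {z : G} (hz : Cfsg.IsIsolatedInvolution z) (g : G) :
    ∃ a ∈ Cfsg.pPrimeCore 2 G, ∃ c ∈ Subgroup.centralizer ({z} : Set G), g = a * c := by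
  have hzz : z * z = 1 := Cfsg.Agent.Lib.helper6.iso_mul_self hz
  have hzi : z⁻¹ = z := inv_eq_of_mul_eq_one_left hzz
  obtain ⟨m, -, hm⟩ := Cfsg.Agent.Lib.helper6.iso_exists_conj hz g
  have h1 : z * (g * z * g⁻¹) ∈ Cfsg.pPrimeCore 2 G :=
    conj_mul_mem_of_co (co_of_isolated hz) g
  have h2 : (g * z * g⁻¹) * z ∈ Cfsg.pPrimeCore 2 G := by
    have e : (g * z * g⁻¹) * z = (z * (g * z * g⁻¹))⁻¹ := by
      rw [mul_inv_rev, mul_inv_rev, mul_inv_rev, inv_inv, hzi]; group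
    rw [e]; exact Subgroup.inv_mem _ h1
  obtain ⟨j, hj⟩ : ∃ j, j = ((g * z * g⁻¹) * z) ^ (m + 1) := ⟨_, rfl⟩
  rw [← hj] at hm
  have hjO : j ∈ Cfsg.pPrimeCore 2 G := by rw [hj]; exact Subgroup.pow_mem _ h2 _
  refine ⟨j, hjO, j⁻¹ * g, ?_, by group⟩
  rw [Subgroup.mem_centralizer_iff]
  intro y hy
  rw [Set.mem_singleton_iff.mp hy]
  -- z * (j⁻¹ g) = (j⁻¹ g) * z
  have e : j⁻¹ * g * z = j⁻¹ * (g * z * g⁻¹) * g := by group
  rw [e, ← hm]
  group

end Cfsg.Agent.Lib.helper16.ZStar
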