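import Mathlib
import Cfsg.Agent.Lib.helper16.ZStar4
import Cfsg.Agent.Lib.helper14.SylIn
import Cfsg.Agent.Lib.helper8.CoprimeAction

set_option autoImplicit false

/-! Invariant Sylow subgroups for an isolated involution. -/

namespace Cfsg.Agent.Lib.helper16.ZStar

open Cfsg
open scoped Pointwise

universe u

variable {G : Type u} [Group G] [Finite G]

/-- for an isolated involution `z` and a `p`-subgroup `P` (`p` odd), `P O(G)` has odd order and
is normalized by `z` -/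
theorem iso_K {z : G} (hz : Cfsg.IsIsolatedInvolution z) {p : ℕ} [Fact p.Prime] (hp : p ≠ 2)
    (P : Subgroup G) (hP : IsPGroup p P) :
    (Nat.card ↥(P ⊔ Cfsg.pPrimeCore 2 G)).Coprime 2 ∧
      Subgroup.zpowers z ≤ Subgroup.normalizer ((P ⊔ Cfsg.pPrimeCore 2 G : Subgroup G) : Set G) := by
  have hzz : z * z = 1 := Cfsg.Agent.Lib.helper6.iso_mul_self hz
  have hzi : z⁻¹ = z := inv_eq_of_mul_eq_one_left hzz
  haveI hOn : (Cfsg.pPrimeCore 2 G).Normal := Cfsg.Agent.Lib.helper9.ppc_normal 2 G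
  have hOc : (Nat.card (Cfsg.pPrimeCore 2 G)).Coprime 2 :=
    Cfsg.Agent.Lib.helper9.pPrimeCore_coprime 2 G
  have hpc : Nat.Coprime p 2 := (Nat.coprime_primes Fact.out Nat.prime_two).mpr hp
  have hPc : (Nat.card P).Coprime 2 := by
    obtain ⟨n, hn⟩ := IsPGroup.iff_card.mp hP
    rw [hn]; exact Nat.Coprime.pow_left n hpc
  refine ⟨Cfsg.Agent.Lib.helper9.card_sup_coprime hPc hOc, ?_⟩
  obtain ⟨K, hK⟩ : ∃ K, K = P ⊔ Cfsg.pPrimeCore 2 G := ⟨_, rfl⟩
  rw [← hK]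
  have hfw : ∀ k ∈ K, z * k * z⁻¹ ∈ K := by
    intro k hk
    have e : z * k * z⁻¹ = (z * k * z⁻¹ * k⁻¹) * k := by group
    rw [e]
    refine K.mul_mem ?_ hk
    rw [hK]
    exact Subgroup.mem_sup_right (zstar_isolated hz k)
  rw [Subgroup.zpowers_le, Subgroup.mem_normalizer_iff]
  intro k
  refine ⟨hfw k, fun h => ?_⟩
  have := hfw _ h
  have e : z * (z * k * z⁻¹) * z⁻¹ = k := by
    rw [hzi]
    calc z * (z * k * z) * z = (z * z) * k * (z * z) := by group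
      _ = k := by rw [hzz, one_mul, mul_one]
  rw [e] at this; exact this

/-- a `p`-subgroup (`p` odd) of `C_G(z)`, `z` an isolated involution, is conjugate under
`C_G(z)` into any `z`-invariant Sylow `p`-subgroup of `G` -/
theorem iso_conj_into {z : G} (hz : Cfsg.IsIsolatedInvolution z) {p : ℕ} [Fact p.Prime]
    (hp : p ≠ 2) (P : Sylow p G) (hzP : z ∈ Subgroup.normalizer ((P : Subgroup G) : Set G))
    (R : Subgroup G) (hR : IsPGroup p R) (hRC : R ≤ Subgroup.centralizer ({z} : Set G)) :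
    ∃ c ∈ Subgroup.centralizer ({z} : Set G), ∀ x ∈ R, c * x * c⁻¹ ∈ (P : Subgroup G) := by
  classical
  have hzz : z * z = 1 := Cfsg.Agent.Lib.helper6.iso_mul_self hz
  have hzi : z⁻¹ = z := inv_eq_of_mul_eq_one_left hzz
  haveI hOn : (Cfsg.pPrimeCore 2 G).Normal := Cfsg.Agent.Lib.helper9.ppc_normal 2 G
  obtain ⟨hKodd, hzK⟩ := iso_K hz hp (P : Subgroup G) P.isPGroup'
  obtain ⟨K, hK⟩ : ∃ K, K = (P : Subgroup G) ⊔ Cfsg.pPrimeCore 2 G := ⟨_, rfl⟩
  rw [← hK] at hKodd hzK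
  have hPK : (P : Subgroup G) ≤ K := by rw [hK]; exact le_sup_left
  -- Sylow: conjugate `R` into `P`
  obtain ⟨P₁, hP₁⟩ := hR.exists_le_sylow
  obtain ⟨g, hg⟩ := MulAction.exists_smul_eq G P₁ P
  have hgR : ∀ x ∈ R, g * x * g⁻¹ ∈ (P : Subgroup G) := by
    intro x hx
    have h3 : MulAut.conj g • x ∈ MulAut.conj g • (P₁ : Subgroup G) :=
      Subgroup.smul_mem_pointwise_smul _ _ _ (hP₁ hx)
    have h4 : (MulAut.conj g • (P₁ : Subgroup G)) = (P : Subgroup G) := by rw [← hg]; rfl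
    rw [h4] at h3
    exact h3
  obtain ⟨a, ha, c, hc, rfl⟩ := iso_factor hz g
  obtain ⟨R₁, hR₁⟩ : ∃ R₁, R₁ = R.map (MulAut.conj c).toMonoidHom := ⟨_, rfl⟩
  have hR₁p : IsPGroup p R₁ := by rw [hR₁]; exact hR.map _
  have hR₁C : R₁ ≤ Subgroup.centralizer ({z} : Set G) := by
    rw [hR₁]
    rintro _ ⟨x, hx, rfl⟩
    exact Subgroup.mul_mem _ (Subgroup.mul_mem _ hc (hRC hx)) (Subgroup.inv_mem _ hc)
  have hR₁K : R₁ ≤ K := by
    rw [hR₁]
    rintro _ ⟨x, hx, rfl⟩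
    show c * x * c⁻¹ ∈ K
    have h1 := hgR x hx
    have e : c * x * c⁻¹ = (a⁻¹ * ((a * c) * x * (a * c)⁻¹) * a⁻¹⁻¹ * ((a * c) * x * (a * c)⁻¹)⁻¹) *
        ((a * c) * x * (a * c)⁻¹) := by group
    rw [e]
    refine K.mul_mem ?_ (hPK h1)
    rw [hK]
    apply Subgroup.mem_sup_right
    have e2 : a⁻¹ * ((a * c) * x * (a * c)⁻¹) * a⁻¹⁻¹ * ((a * c) * x * (a * c)⁻¹)⁻¹ =
        a⁻¹ * (((a * c) * x * (a * c)⁻¹) * a * ((a * c) * x * (a * c)⁻¹)⁻¹) := by group
    rw [e2]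
    exact Subgroup.mul_mem _ (Subgroup.inv_mem _ ha) (hOn.conj_mem a ha _)
  have hzR₁ : Subgroup.zpowers z ≤ Subgroup.normalizer (R₁ : Set G) := by
    rw [Subgroup.zpowers_le, Subgroup.mem_normalizer_iff]
    intro y
    have hcomm : ∀ y ∈ R₁, z * y * z⁻¹ = y := by
      intro y hy
      have := Subgroup.mem_centralizer_iff.mp (hR₁C hy) z rfl
      rw [this]; group
    constructor
    · intro hy; rw [hcomm y hy]; exact hy
    · intro hy
      have := hcomm _ hy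
      have e : z * (z * y * z⁻¹) * z⁻¹ = y := by
        rw [hzi]
        calc z * (z * y * z) * z = (z * z) * y * (z * z) := by group
          _ = y := by rw [hzz, one_mul, mul_one]
      rw [e] at this
      rw [this]; exact hy
  have hcop : (Nat.card (Subgroup.zpowers z)).Coprime (Nat.card K) := by
    rw [Nat.card_zpowers, hz.1]; exact hKodd.symm
  have hsolv : Group.IsSolvable (Subgroup.zpowers z) ∨ Group.IsSolvable K :=
    Or.inl (Cfsg.Agent.Lib.helper8.isSolvable_of_isMulCommutative _)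
  obtain ⟨P₂, hR₁P₂, hzP₂⟩ := Cfsg.Agent.Lib.helper8.exists_invariant_sylow_ge
    (Subgroup.zpowers z) K hzK hcop hsolv R₁ hR₁K hR₁p hzR₁
  -- `P` as a Sylow subgroup of `K`
  have hPcard : Nat.card (P : Subgroup G) = p ^ (Nat.card K).factorization p := by
    apply le_antisymm (Cfsg.Agent.Lib.helper14.card_le_of_isPGroup_le P.isPGroup' hPK)
    have h1 : Nat.card ((P₂ : Subgroup K).map K.subtype) ≤
        p ^ (Nat.card (⊤ : Subgroup G)).factorization p :=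
      Cfsg.Agent.Lib.helper14.card_le_of_isPGroup_le (P₂.isPGroup'.map _) le_top
    rw [Subgroup.card_top, Cfsg.Agent.Lib.helper8.card_sylow_map] at h1
    rw [P.card_eq_multiplicity]; exact h1
  obtain ⟨P', hP'⟩ := Cfsg.Agent.Lib.helper8.exists_sylow_map_eq hPK hPcard
  have hzP' : Subgroup.zpowers z ≤
      Subgroup.normalizer (((P' : Subgroup K).map K.subtype : Subgroup G) : Set G) := by
    rw [hP', Subgroup.zpowers_le]; exact hzP
  obtain ⟨c₂, hc₂, hconj⟩ := Cfsg.Agent.Lib.helper8.invariant_sylow_conj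
    (Subgroup.zpowers z) K hzK hcop hsolv P' P₂ hzP' hzP₂
  have hc₂C : c₂ ∈ Subgroup.centralizer ({z} : Set G) := by
    rw [Subgroup.mem_centralizer_iff]
    intro y hy
    rw [Set.mem_singleton_iff.mp hy]
    exact Subgroup.mem_centralizer_iff.mp hc₂.2 z (Subgroup.mem_zpowers z)
  refine ⟨c₂⁻¹ * c, Subgroup.mul_mem _ (Subgroup.inv_mem _ hc₂C) hc, fun x hx => ?_⟩
  have h1 : c * x * c⁻¹ ∈ (P₂ : Subgroup K).map K.subtype := by
    apply hR₁P₂
    rw [hR₁]; exact ⟨x, hx, rfl⟩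
  have h2 := (hconj _).mp h1
  rw [hP'] at h2
  have e : c₂⁻¹ * c * x * (c₂⁻¹ * c)⁻¹ = c₂⁻¹ * (c * x * c⁻¹) * c₂ := by group
  rw [e]; exact h2

end Cfsg.Agent.Lib.helper16.ZStar
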